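import Cfsg.Agent.RS.Sp

namespace RS
open Cfsg Subgroup
open scoped commutatorElement

theorem map_cj {G H : Type*} [Group G] [Group H] (φ : G →* H) (A : Subgroup G) (g : G) :
    (conjBy A g).map φ = conjBy (A.map φ) (φ g) := by
  simp only [conjBy, Subgroup.map_map]; congr 1; ext; simp

theorem Sp.le_comm {X : Type*} [Group X] {A B : Subgroup X} (hs' : Sp A B) (hab : HasAbelianUnipotents A B)
    (hc : 3 < ENat.card A) : A ≤ ⁅A, rankOneDiagonal A B⁆ := by
  haveI := hab.1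
  have cA : ∀ x ∈ A, ∀ y ∈ A, x * y = y * x := fun x hx y hy =>
    congrArg Subtype.val (hab.1.is_comm.comm ⟨x, hx⟩ ⟨y, hy⟩)
  intro c hc'
  focus
    by_cases c1 : c = 1
    · rw [c1]; exact one_mem _
    obtain ⟨s, hs⟩ : ∃ s, ∀ b ∈ A, b * b = c → b = s := by
      by_cases e : ∃ s ∈ A, s * s = c
      · obtain ⟨s, i, rfl⟩ := e
        refine ⟨s, fun b j k => ?_⟩
        by_contra l
        have m := mul_mem j (inv_mem i)
        have l' : b * s⁻¹ ≠ 1 := fun e => l (mul_inv_eq_one.1 e)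
        have e2 : (b * s⁻¹) ^ 2 = 1 := by
          rw [sq, mul_assoc, ← mul_assoc s⁻¹, cA _ (inv_mem i) b j]
          simp [← mul_assoc, k]
        rcases hs'.dich hab with ⟨p, hp, -, e3⟩ | ⟨e3, -⟩
        · haveI := Fact.mk hp
          rw [← orderOf_eq_prime (e3 _ m) l', orderOf_eq_prime e2 l'] at e3
          exact c1 (sq s ▸ e3 s i)
        · exact e3 _ m l' (isOfFinOrder_iff_pow_eq_one.2 ⟨2, two_pos, e2⟩)
      · exact ⟨1, fun b i j => absurd ⟨b, i, j⟩ e⟩
    obtain ⟨b, hb, b1, bc, bs⟩ : ∃ b ∈ A, b ≠ 1 ∧ b ≠ c ∧ b ≠ s := by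
      by_contra! k
      have : (A : Set X) ⊆ {1, c, s} := fun b hb => by
        by_cases i : b = 1
        · simp [i]
        by_cases j : b = c
        · simp [j]
        simp [k b hb i j]
      have h3 := (Set.encard_le_encard this).trans ((Set.encard_insert_le _ _).trans
        (add_le_add_left (Set.encard_insert_le _ _) _))
      rw [Set.encard_singleton] at h3
      exact absurd (hc.trans_le h3) (by decide)
    have hx : c * b⁻¹ * b⁻¹ ∈ A := mul_mem (mul_mem hc' (inv_mem hb)) (inv_mem hb)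
    have x1 : c * b⁻¹ * b⁻¹ ≠ 1 := fun e => bs (hs b hb (by
      rw [← one_mul (b * b), ← e]; group))
    have xb : c * b⁻¹ * b⁻¹ * b ≠ 1 := fun e => bc (by rw [← one_mul b, ← e]; group)
    have e := hs'.hua hab hb b1 hx x1 xb
    have m := mul_mem hx hb
    have i1 := hs'.mu_mem hb b1 hx x1
    set x := c * b⁻¹ * b⁻¹
    have i2 : (nn A B (x * b)⁻¹)⁻¹ * nn A B b ∈ rankOneDiagonal A B :=
      ⟨⟨(A ⊔ B).mul_mem (inv_mem (hs'.nn_mem (inv_mem m) (inv_ne_one.2 xb))) (hs'.nn_mem hb b1),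
        cj_eq_iff.1 (by rw [← cj_cj, hs'.cj_nn hb b1, hs'.cj_nn_inv' (inv_mem m) (inv_ne_one.2 xb)])⟩,
        cj_eq_iff.1 (by rw [← cj_cj, hs'.cj_nn' hb b1, hs'.cj_nn_inv (inv_mem m) (inv_ne_one.2 xb)])⟩
    have := commutator_mem_commutator (inv_mem i1) i2
    rw [show ⁅(mu A B b x)⁻¹, (nn A B (x * b)⁻¹)⁻¹ * nn A B b⁆ = (mu A B b x)⁻¹ * mu A B (x * b)⁻¹ x by
      simp only [commutatorElement_def, mu]; group, e,
      show (mu A B b x)⁻¹ * (mu A B b x * b⁻¹ * (x * b)⁻¹) = c⁻¹ by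
        simp only [x]; group, inv_mem_iff] at this
    exact this

end RS
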