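import Cfsg.Agent.RS.Sp3
import Cfsg.Agent.RS.R2

namespace RS
open Cfsg Subgroup Relation
open scoped commutatorElement

theorem qs_of {G : Type*} [Group G] {S : Set (Subgroup G)} (cl : Cl S) (ni : ∀ A ∈ S, NI S A)
    (h3 : ∀ A ∈ S, 3 < ENat.card A) (h4 : ∀ A ∈ S, ∀ B ∈ S, R1 A B → Sp A B)
    (h5 : ∀ N : Subgroup G, N.Normal → (∀ A ∈ S, ∀ n ∈ N, ⁅conjBy A n, A⁆ = ⊥) → N ≤ center G) : IsQuasisimple G := by
  have hS := cl.1
  have R : Rt S := hS
  have top : ∀ N : Subgroup G, N.Normal → ∀ A ∈ S, A ≤ N → N = ⊤ := fun N hN A hA le => by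
    refine eq_top_iff.2 (hS.generates ▸ iSup₂_le fun B hB => ?_)
    obtain ⟨g, rfl⟩ := cl.2.2 A hA B hB
    exact (cj_mono le).trans (cj_eq_iff.2 (normalizer_eq_top N ▸ mem_top g)).le
  have key : ∀ N : Subgroup G, N.Normal → ∀ C ∈ S, ∀ D ∈ S, R1 C D → ⁅C, D⁆ ≤ N → N = ⊤ := fun N hN C hC D hD r le => by
    let π := QuotientGroup.mk' N
    have k : ∀ K : Subgroup G, K ≤ N ↔ K.map π = ⊥ := fun K => by rw [Subgroup.map_eq_bot_iff, QuotientGroup.ker_mk']
    rw [k, map_commutator] at le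
    refine top N hN C hC ((Sp.le_comm (h4 C hC D hD r) ⟨hS.1 C hC, hS.1 D hD⟩ (h3 C hC)).trans ?_)
    rw [k, map_commutator]
    exact comm_mono (comm_sup (by rw [← map_commutator, R.ab hC, Subgroup.map_bot]) le) le_rfl
      (Subgroup.map_sup C D π ▸ Subgroup.map_mono (inf_le_left.trans inf_le_left))
  obtain ⟨A₀, hA₀⟩ := cl.2.1
  obtain ⟨-, B₁, hB₁, r₁⟩ := ni A₀ hA₀
  have e' : commutator G = ⊤ := key _ inferInstance _ hA₀ _ hB₁ r₁ (commutator_mono le_top le_top)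
  have nrm : ∀ N : Subgroup G, N.Normal → N ≤ center G ∨ N = ⊤ := fun N hN => by
    refine (em _).symm.imp_left fun n => h5 N hN fun A hA x i => ?_
    have le : ⁅conjBy A x, A⁆ ≤ N := by
      rw [← QuotientGroup.ker_mk' N, ← Subgroup.map_eq_bot_iff, map_commutator, map_cj,
        show QuotientGroup.mk' N x = 1 from (QuotientGroup.eq_one_iff x).2 i, cj_one, ← map_commutator,
        R.ab hA, Subgroup.map_bot]
    rcases R.tri (R.cj hA x) hA with t | t | t
    · exact t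
    · exact absurd (key N hN _ (R.cj hA x) _ hA t le) n
    · exact absurd (top N hN _ t.mem le) n
  haveI : Nontrivial (G ⧸ center G) := QuotientGroup.nontrivial_iff.2 fun e => R1.not_comm r₁
    (comm_iff.2 fun a _ b _ => mem_center_iff.1 (e ▸ mem_top b) a)
  exact ⟨⟨e'⟩, ⟨fun M hM => (nrm _ (hM.comap (QuotientGroup.mk' _))).imp
    (fun h1 => eq_bot_iff.2 fun m hm => by
      obtain ⟨x, rfl⟩ := QuotientGroup.mk_surjective m
      exact (QuotientGroup.eq_one_iff x).2 (h1 hm)) fun h1 => eq_top_iff.2 fun m _ => by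
      obtain ⟨x, rfl⟩ := QuotientGroup.mk_surjective m
      exact (h1.ge (mem_top x) :)⟩⟩

end RS
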