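import Cfsg.Agent.RS.B
import Cfsg.Prelude.Def_Transfer

/-! Special rank one groups with abelian unipotent subgroups. -/
namespace RS
open Cfsg Subgroup

variable {G : Type*} [Group G] {A B : Subgroup G} {a b c g x y z : G}

/-- partners -/
def Pt (A B : Subgroup G) (a b : G) : Prop := b ∈ B ∧ b ≠ 1 ∧ conjBy A b⁻¹ = conjBy B a⁻¹

open Classical in
/-- the partner -/
noncomputable def bt (A B : Subgroup G) (a : G) : G := if h : ∃ b, Pt A B a b then h.choose else 1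

/-- the element `n(a)` -/
noncomputable def nn (A B : Subgroup G) (a : G) : G := a * (bt A B a)⁻¹ * a

/-- the map `μ` -/
noncomputable def mu (A B : Subgroup G) (c x : G) : G := (nn A B c)⁻¹ * bt A B x * nn A B c

theorem R1.pt (h : R1 A B) (ha : a ∈ A) (a1 : a ≠ 1) : Pt A B a (bt A B a) := by
  have : ∃ b, Pt A B a b := h.cond_left a ha a1
  rw [bt, dif_pos this]; exact this.choose_spec

theorem R1.bt_eq (h : R1 A B) (ha : a ∈ A) (a1 : a ≠ 1) (hb : Pt A B a b) : bt A B a = b :=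
  inv_injective (h.symm.uniq (inv_mem (h.pt ha a1).1) (inv_mem hb.1)
    ((h.pt ha a1).2.2.trans hb.2.2.symm))

/-- special -/
abbrev Sp (A B : Subgroup G) : Prop := IsSpecialRankOnePair A B

namespace Sp

theorem r1 (h : Sp A B) : R1 A B := h.1

theorem braid (h : Sp A B) (ha : a ∈ A) (a1 : a ≠ 1) :
    nn A B a = (bt A B a)⁻¹ * a * (bt A B a)⁻¹ := by
  have P := h.r1.pt ha a1
  have := h.2 a ha a1 _ P.1 P.2.1 P.2.2
  calc _ = a * ((bt A B a)⁻¹ * a * bt A B a) * (bt A B a)⁻¹ := by rw [nn]; group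
    _ = _ := by rw [this]; group

theorem nn_conj (h : Sp A B) (ha : a ∈ A) (a1 : a ≠ 1) : mu A B a a = a⁻¹ := by
  have e := h.braid ha a1
  calc _ = (nn A B a)⁻¹ * bt A B a * ((bt A B a)⁻¹ * a * (bt A B a)⁻¹) := by rw [mu, ← e]
    _ = _ := by rw [nn]; group

theorem nn_conj' (h : Sp A B) (ha : a ∈ A) (a1 : a ≠ 1) :
    nn A B a * bt A B a * (nn A B a)⁻¹ = a⁻¹ := by
  have e := h.braid ha a1
  calc _ = ((bt A B a)⁻¹ * a * (bt A B a)⁻¹) * bt A B a * (nn A B a)⁻¹ := by rw [← e]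
    _ = _ := by rw [nn]; group

theorem bt_inv (h : Sp A B) (ha : a ∈ A) (a1 : a ≠ 1) : bt A B a⁻¹ = (bt A B a)⁻¹ := by
  have P := h.r1.pt ha a1
  refine h.r1.bt_eq (inv_mem ha) (by simpa) ⟨inv_mem P.1, by simpa using P.2.1, ?_⟩
  rw [inv_inv, inv_inv]
  refine h.r1.eq_of_mem (Om_cj Om_left (mem_sup_right P.1))
    (Om_cj h.r1.Om_right (mem_sup_left ha)) (cj_mem ha _) ?_ (by simpa)
  have e := h.braid ha a1
  rw [show bt A B a * a * (bt A B a)⁻¹ = a * (bt A B a)⁻¹ * a⁻¹ by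
    have := h.nn_conj' ha a1
    rw [nn] at this e
    calc _ = bt A B a * (a * (bt A B a)⁻¹ * a) * a⁻¹ := by group
      _ = _ := by rw [e]; group]
  exact cj_mem (inv_mem P.1) a

theorem nn_inv (h : Sp A B) (ha : a ∈ A) (a1 : a ≠ 1) : nn A B a⁻¹ = (nn A B a)⁻¹ := by
  rw [nn, nn, h.bt_inv ha a1]; group

theorem cj_nn (h : Sp A B) (ha : a ∈ A) (a1 : a ≠ 1) : conjBy A (nn A B a) = B := by
  rw [nn, ← cj_cj, cj_self ha, ← cj_cj, (h.r1.pt ha a1).2.2, cj_cj_inv]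

theorem cj_nn_inv (h : Sp A B) (ha : a ∈ A) (a1 : a ≠ 1) : conjBy A (nn A B a)⁻¹ = B := by
  rw [← h.nn_inv ha a1, h.cj_nn (inv_mem ha) (by simpa)]

theorem cj_nn' (h : Sp A B) (ha : a ∈ A) (a1 : a ≠ 1) : conjBy B (nn A B a) = A :=
  (congrArg (conjBy · _) (h.cj_nn_inv ha a1)).symm.trans cj_cj_inv

theorem cj_nn_inv' (h : Sp A B) (ha : a ∈ A) (a1 : a ≠ 1) : conjBy B (nn A B a)⁻¹ = A :=
  (congrArg (conjBy · _) (h.cj_nn ha a1)).symm.trans cj_inv_cj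

theorem nn_mem (h : Sp A B) (ha : a ∈ A) (a1 : a ≠ 1) : nn A B a ∈ A ⊔ B :=
  mul_mem (mul_mem (mem_sup_left ha) (mem_sup_right (inv_mem (h.r1.pt ha a1).1))) (mem_sup_left ha)

theorem mu_mem (h : Sp A B) (hc : c ∈ A) (c1 : c ≠ 1) (hx : x ∈ A) (x1 : x ≠ 1) :
    mu A B c x ∈ A := (h.cj_nn_inv' hc c1).le (cj_mem' (h.r1.pt hx x1).1 _)

theorem mu_eq (h : Sp A B) (hc : c ∈ A) (c1 : c ≠ 1) (hx : x ∈ A) (x1 : x ≠ 1) (hz : z ∈ A)
    (e : conjBy B (x * nn A B c)⁻¹ = conjBy B z⁻¹) : mu A B c x = z := by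
  refine inv_injective (h.r1.uniq (inv_mem (h.mu_mem hc c1 hx x1)) (inv_mem hz) (e ▸ ?_))
  rw [mul_inv_rev x, ← cj_cj, ← (h.r1.pt hx x1).2.2, cj_cj]
  refine (congrArg (conjBy · _) (h.cj_nn_inv hc c1)).symm.trans (cj_cj.trans ?_)
  rw [mu]
  congr 1; group

theorem mu_inv (h : Sp A B) (hx : x ∈ A) (x1 : x ≠ 1) : mu A B c x⁻¹ = (mu A B c x)⁻¹ := by
  rw [mu, mu, h.bt_inv hx x1]; group

theorem mu_inv_self (h : Sp A B) (ha : a ∈ A) (a1 : a ≠ 1) : mu A B a⁻¹ a = a⁻¹ := by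
  rw [mu, h.nn_inv ha a1, inv_inv, h.nn_conj' ha a1]

theorem order_mu (h : Sp A B) (hx : x ∈ A) (x1 : x ≠ 1) (n : ℕ) :
    mu A B c x ^ n = 1 ↔ x ^ n = 1 := by
  have k : ∀ c, mu A B c x ^ n = 1 ↔ bt A B x ^ n = 1 := fun c => by
    have := conj_pow (a := (nn A B c)⁻¹) (b := bt A B x) (i := n)
    rw [inv_inv] at this
    rw [mu, this]; simp [mul_eq_one_iff_eq_inv]
  rw [k, ← k x, h.nn_conj hx x1]; simp

theorem hua (h : Sp A B) (hab : HasAbelianUnipotents A B) (hc : c ∈ A) (c1 : c ≠ 1) (hx : x ∈ A)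
    (x1 : x ≠ 1) (xc : x * c ≠ 1) : mu A B (x * c)⁻¹ x = mu A B c x * c⁻¹ * (x * c)⁻¹ := by
  have P := h.r1.pt hc c1
  have m := mul_mem hx hc
  have Q := h.r1.pt m xc
  have cA : x * c = c * x := congrArg Subtype.val (hab.1.is_comm.comm ⟨x, hx⟩ ⟨c, hc⟩)
  have cB : bt A B (x * c) * (bt A B c)⁻¹ = (bt A B c)⁻¹ * bt A B (x * c) :=
    congrArg Subtype.val (hab.2.is_comm.comm ⟨_, Q.1⟩ ⟨_, inv_mem P.1⟩)
  obtain ⟨u, hu, -, e⟩ := h.r1.cond_right _ (mul_mem Q.1 (inv_mem P.1)) fun e => by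
    have := P.2.2
    rw [← mul_inv_eq_one.1 e, Q.2.2] at this
    exact x1 (by simpa using h.r1.uniq (inv_mem m) (inv_mem hc) this)
  rw [h.mu_eq hc c1 hx x1 (mul_mem hu hc), h.mu_eq (inv_mem m) (inv_ne_one.2 xc) hx x1
    (mul_mem hu (inv_mem m)), mul_inv_cancel_right]
  · rw [mul_inv_rev u, ← cj_cj, e, cB, mul_inv_rev _ (bt A B (x * c)), ← cj_cj, inv_inv,
      inv_inv, ← inv_inv (bt A B c), ← h.bt_inv hc c1, (h.r1.pt (inv_mem hc) (by simpa)).2.2,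
      cj_cj, cj_cj, h.nn_inv m xc, nn]
    congr 1
    rw [cA]; group
  · rw [mul_inv_rev u, ← cj_cj, e, mul_inv_rev _ (bt A B c)⁻¹, ← cj_cj, Q.2.2, cj_cj, cj_cj, nn]
    congr 1; group

theorem mu_pow (h : Sp A B) (hab : HasAbelianUnipotents A B) (ha : a ∈ A) (m : ℕ)
    (hm : ∀ k, 1 ≤ k → k ≤ m + 1 → a ^ k ≠ 1) :
    mu A B (a ^ (m + 1)) a = (a ^ (m + 1) ^ 2)⁻¹ ∧ mu A B (a ^ (m + 1))⁻¹ a = (a ^ (m + 1) ^ 2)⁻¹ := by
  have a1 : a ≠ 1 := by simpa using hm 1 le_rfl (by omega)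
  induction m with
  | zero => simpa using ⟨h.nn_conj ha a1, h.mu_inv_self ha a1⟩
  | succ m ih =>
    obtain ⟨h1, h2⟩ := ih fun k i j => hm k i (by omega)
    have c1 := hm (m + 1) (by omega) (by omega)
    have c2 := hm (m + 2) (by omega) (by omega)
    have e1 := h.hua hab (pow_mem ha (m + 1)) c1 ha a1 (by rwa [← pow_succ'])
    have e2 := h.hua hab (inv_mem (pow_mem ha (m + 1))) (inv_ne_one.2 c1) (inv_mem ha)
      (inv_ne_one.2 a1) (by rwa [← mul_inv_rev, inv_ne_one, ← pow_succ])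
    rw [← mul_inv_rev, inv_inv, inv_inv, h.mu_inv ha a1, h.mu_inv ha a1, h2, ← pow_succ,
      inv_eq_iff_eq_inv] at e2
    rw [h1, ← pow_succ'] at e1
    rw [e1, e2]
    constructor <;> group

theorem exists_conj (h : Sp A B) (hab : HasAbelianUnipotents A B) (ha : a ∈ A) {m : ℕ} (m0 : 0 < m)
    (hm : ∀ k, 1 ≤ k → k ≤ m → a ^ k ≠ 1) : ∃ g, conjBy A g = A ∧ (g * a * g⁻¹) ^ m ^ 2 = a := by
  obtain ⟨m, rfl⟩ := Nat.exists_eq_succ_of_ne_zero m0.ne'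
  have a1 : a ≠ 1 := by simpa using hm 1 le_rfl (by omega)
  have c1 := hm (m + 1) (by omega) le_rfl
  refine ⟨(nn A B a)⁻¹ * nn A B (a ^ (m + 1)), ?_, ?_⟩
  · rw [← cj_cj, h.cj_nn (pow_mem ha _) c1, h.cj_nn_inv' ha a1]
  · rw [conj_pow, ← inv_inv (a ^ _ ^ 2), ← (h.mu_pow hab ha m hm).1]
    conv_rhs => rw [← inv_inv a, ← h.nn_conj ha a1]
    simp only [mu]; group

theorem prime (h : Sp A B) (hab : HasAbelianUnipotents A B) (ha : a ∈ A) (a1 : a ≠ 1)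
    (hf : IsOfFinOrder a) : (orderOf a).Prime := by
  have o1 := mt orderOf_eq_one_iff.1 a1
  have hp := Nat.minFac_prime o1
  by_contra hc
  have lt := (Nat.not_prime_iff_minFac_lt (by have := hf.orderOf_pos; omega)).1 hc
  obtain ⟨g, -, e⟩ := h.exists_conj hab ha hp.pos fun k i j =>
    pow_ne_one_of_lt_orderOf (by omega) (by omega)
  have e1 : orderOf (g * a * g⁻¹) = orderOf a := (MulAut.conj g).orderOf_eq a
  have := congrArg orderOf e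
  rw [orderOf_pow' _ (pow_ne_zero _ hp.ne_zero), e1, Nat.div_eq_self, or_iff_right hf.orderOf_pos.ne']
    at this
  exact hp.one_lt.ne' (Nat.eq_one_of_dvd_one (this ▸ Nat.dvd_gcd (Nat.minFac_dvd _)
    (dvd_pow_self _ two_ne_zero)))

theorem sq_pow (h : Sp A B) (hab : HasAbelianUnipotents A B) (hc : c ∈ A) (c1 : c ≠ 1) (hx : x ∈ A)
    (x1 : x ≠ 1) (xc : x * c ≠ 1) {n : ℕ} (hn : x ^ n = 1) : c ^ (2 * n) = 1 := by
  have e := h.hua hab hc c1 hx x1 xc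
  have h1 := (h.order_mu (c := (x * c)⁻¹) hx x1 n).2 hn
  have h2 := (h.order_mu (c := c) hx x1 n).2 hn
  have h3 := h.mu_mem hc c1 hx x1
  haveI := hab.1
  rw [e] at h1
  generalize mu A B c x = u at *
  lift u to A using h3
  lift x to A using hx
  lift c to A using hc
  norm_cast at *
  open scoped IsMulCommutative in
  rw [mul_pow, mul_pow, inv_pow, inv_pow, mul_pow, h2, hn, one_mul, one_mul, ← mul_inv_rev,
    inv_eq_one, ← pow_add] at h1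
  rwa [two_mul]

theorem dich (h : Sp A B) (hab : HasAbelianUnipotents A B) :
    (∃ p : ℕ, p.Prime ∧ IsElementaryAbelian p A) ∨
    ((∀ a ∈ A, a ≠ 1 → ¬ IsOfFinOrder a) ∧ ∀ a ∈ A, ∀ n : ℕ, 0 < n → ∃ c ∈ A, c ^ n = a) := by
  by_cases hf : ∀ a ∈ A, a ≠ 1 → ¬ IsOfFinOrder a
  · refine .inr ⟨hf, fun a ha n n0 => ?_⟩
    by_cases a1 : a = 1
    · exact ⟨1, one_mem _, by simp [a1]⟩
    obtain ⟨g, h1, e⟩ := h.exists_conj hab ha n0 fun k i _ e =>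
      hf a ha a1 (isOfFinOrder_iff_pow_eq_one.2 ⟨k, i, e⟩)
    exact ⟨_ ^ n, pow_mem (h1.le (cj_mem ha g)) n, by rw [← pow_mul, ← sq, e]⟩
  push Not at hf
  obtain ⟨a, ha, a1, hf⟩ := hf
  have hp := h.prime hab ha a1 hf
  refine .inl ⟨_, hp, hab.1, fun b hb => ?_⟩
  by_cases b1 : b = 1
  · simp [b1]
  by_cases ab : a * b = 1
  · rw [eq_inv_of_mul_eq_one_right ab, inv_pow, pow_orderOf_eq_one, inv_one]
  have h1 := h.sq_pow hab hb b1 ha a1 ab (pow_orderOf_eq_one a)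
  have hq := h.prime hab hb b1 (isOfFinOrder_iff_pow_eq_one.2 ⟨_, by have := hp.pos; omega, h1⟩)
  have h2 := h.sq_pow hab ha a1 hb b1 (fun e => ab (mul_eq_one_comm.1 e)) (pow_orderOf_eq_one b)
  rw [← orderOf_dvd_iff_pow_eq_one] at h1 h2 ⊢
  refine ((Nat.Prime.dvd_mul hq).1 h1).elim (fun e => ?_) id
  rw [(Nat.prime_dvd_prime_iff_eq hq Nat.prime_two).1 e] at h2 ⊢
  rw [(Nat.prime_dvd_prime_iff_eq hp Nat.prime_two).1 (((Nat.Prime.dvd_mul hp).1 h2).elim id id)]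

end Sp
end RS
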