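import Mathlib

/-! The Steinberg presentation of `SL₂`. -/
namespace RS
open Matrix

/-- Steinberg data of rank one -/
structure St (F G : Type*) [Field F] [Group G] where
  /-- upper -/
  x : F → G
  /-- lower -/
  y : F → G
  xa : ∀ t u, x (t + u) = x t * x u
  ya : ∀ t u, y (t + u) = y t * y u
  r : ∀ t, t ≠ 0 → ∀ u, x t * y (-t⁻¹) * x t * x u = y (-u / t ^ 2) * (x t * y (-t⁻¹) * x t)

namespace St
variable {F G : Type*} [Field F] [Group G] (S : St F G) {t u : F}

/-- Weyl elements -/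
def w (t : F) : G := S.x t * S.y (-t⁻¹) * S.x t

/-- torus elements -/
def h (t : F) : G := S.w t * (S.w 1)⁻¹

@[simp] theorem x0 : S.x 0 = 1 := by simpa using S.xa 0 0
@[simp] theorem y0 : S.y 0 = 1 := by simpa using S.ya 0 0
theorem xn (t : F) : S.x (-t) = (S.x t)⁻¹ := eq_inv_of_mul_eq_one_left (by rw [← S.xa]; simp)
theorem yn (t : F) : S.y (-t) = (S.y t)⁻¹ := eq_inv_of_mul_eq_one_left (by rw [← S.ya]; simp)
theorem wn (t : F) : S.w (-t) = (S.w t)⁻¹ := by
  simp only [w, inv_neg, neg_neg, xn, yn]; group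

theorem wx (ht : t ≠ 0) (u : F) : S.w t * S.x u = S.y (-u / t ^ 2) * S.w t := S.r t ht u

theorem wy (ht : t ≠ 0) (u : F) : S.w t * S.y u = S.x (-u * t ^ 2) * S.w t := by
  have := S.wx (neg_ne_zero.2 ht) (-u * t ^ 2)
  rw [wn, show -(-u * t ^ 2) / (-t) ^ 2 = u by field_simp] at this
  calc _ = S.w t * (S.y u * (S.w t)⁻¹) * S.w t := by group
    _ = _ := by rw [← this]; group

theorem w_eq (ht : t ≠ 0) : S.w t = S.y (-t⁻¹) * S.x t * S.y (-t⁻¹) := by
  have := S.wx ht (-t)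
  rw [show - -t / t ^ 2 = - -t⁻¹ by field_simp, yn, xn] at this
  calc _ = S.y (-t⁻¹) * ((S.y (-t⁻¹))⁻¹ * S.w t) := by group
    _ = _ := by rw [← this, w]; group

theorem w_h (t : F) : S.w t = S.h t * S.w 1 := by simp [h]

@[simp] theorem h1 : S.h 1 = 1 := by simp [h]

theorem hx (ht : t ≠ 0) (u : F) : S.h t * S.x u = S.x (t ^ 2 * u) * S.h t := by
  rw [h, ← wn, mul_assoc, S.wx (by simp), ← mul_assoc, S.wy ht, mul_assoc]
  congr 2; ring

theorem hy (ht : t ≠ 0) (u : F) : S.h t * S.y u = S.y (u / t ^ 2) * S.h t := by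
  rw [h, ← wn, mul_assoc, S.wy (by simp), ← mul_assoc, S.wx ht, mul_assoc]
  congr 2; ring

theorem ww (ht : t ≠ 0) (hu : u ≠ 0) : S.w t * S.w u = S.w (t ^ 2 / u) * S.w t := by
  rw [S.w_eq (t := t ^ 2 / u) (by positivity), w.eq_1 S u, ← mul_assoc, ← mul_assoc, S.wx ht,
    mul_assoc _ (S.w t), S.wy ht, mul_assoc, mul_assoc, S.wx ht]
  simp only [mul_assoc]
  congr 3 <;> field_simp

theorem h_one_sub (ht : t ≠ 0) (hu : 1 - t ≠ 0) : S.h t * S.h (1 - t) = S.h (t * (1 - t)) := by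
  have e1 := S.wx ht (-1)
  have e2 := S.wy ht 1
  have e3 := S.wx (mul_ne_zero ht hu) ((1 - t) ^ 2)
  have a1 := S.xa (-1) (1 - t)
  have a2 := S.xa (-1 * t ^ 2) t
  have a3 := S.ya (-t⁻¹) (-(1 - t)⁻¹)
  have a4 := S.xa (t * (1 - t)) ((1 - t) ^ 2)
  rw [show -1 + (1 - t) = -t by ring, xn] at a1
  rw [show -1 * t ^ 2 + t = t * (1 - t) by ring] at a2
  rw [show -t⁻¹ + -(1 - t)⁻¹ = -(t * (1 - t))⁻¹ by field_simp; ring] at a3
  rw [show t * (1 - t) + (1 - t) ^ 2 = 1 - t by ring] at a4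
  rw [show -(1 - t) ^ 2 / (t * (1 - t)) ^ 2 = -(- -1 / t ^ 2) by field_simp, yn] at e3
  rw [h, h, h, ← mul_assoc, mul_left_inj, ← wn, w.eq_1 S (-1), w.eq_1 S (1 - t), inv_neg, neg_neg,
    inv_one]
  calc _ = (S.w t * S.x (-1)) * S.y 1 * (S.x (-1) * S.x (1 - t)) * S.y (-(1 - t)⁻¹) * S.x (1 - t) := by
        group
    _ = S.y (- -1 / t ^ 2) * (S.w t * S.y 1) * (S.x t)⁻¹ * S.y (-(1 - t)⁻¹) * S.x (1 - t) := by
        rw [e1, ← a1]; group
    _ = S.y (- -1 / t ^ 2) * (S.x (-1 * t ^ 2) * S.x t) * (S.y (-t⁻¹) * S.y (-(1 - t)⁻¹)) *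
        S.x (1 - t) := by rw [e2, w]; group
    _ = S.y (- -1 / t ^ 2) * (S.w (t * (1 - t)) * S.x ((1 - t) ^ 2)) := by
        rw [← a2, ← a3, a4, w]; group
    _ = _ := by rw [e3]; group

/-- multiplicativity on the torus -/
def Mul : Prop := ∀ t u : F, t ≠ 0 → u ≠ 0 → S.h (t * u) = S.h t * S.h u

theorem mul_of_prime {p : ℕ} [Fact p.Prime] (S : St (ZMod p) G) : S.Mul := by
  obtain ⟨v, hv⟩ := IsCyclic.exists_monoid_generator (α := (ZMod p)ˣ)
  have hv' : ∀ t : ZMod p, t ≠ 0 → ∃ i : ℕ, t = (v : ZMod p) ^ i := fun t ht => by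
    obtain ⟨i, hi⟩ := hv (Units.mk0 t ht)
    exact ⟨i, by simpa using (congrArg Units.val hi).symm⟩
  have cz : ∀ z : G, (∀ u, Commute z (S.x u)) → (∀ u, Commute z (S.y u)) → ∀ u, Commute z (S.h u) :=
    fun z i j u => (((i _).mul_right (j _)).mul_right (i _)).mul_right
      (((i _).mul_right (j _)).mul_right (i _)).inv_right
  have c1 : ∀ i : ℕ, ∀ u, Commute ((S.h v ^ i)⁻¹ * S.h (v ^ i)) (S.h u) := fun i => by
    have i0 := pow_ne_zero i v.ne_zero
    have k1 : ∀ u, S.h v ^ i * S.x u = S.x ((v ^ i) ^ 2 * u) * S.h v ^ i := by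
      clear i0
      induction i with
      | zero => simp
      | succ i ih =>
        intro u
        rw [pow_succ, mul_assoc, S.hx v.ne_zero, ← mul_assoc, ih, mul_assoc]
        congr 2; ring
    have k2 : ∀ u, S.h v ^ i * S.y u = S.y (u / (v ^ i) ^ 2) * S.h v ^ i := by
      clear i0 k1
      induction i with
      | zero => simp
      | succ i ih =>
        intro u
        rw [pow_succ, mul_assoc, S.hy v.ne_zero, ← mul_assoc, ih, mul_assoc]
        congr 2; ring
    refine cz _ (fun u => ?_) fun u => ?_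
    · rw [Commute, SemiconjBy, mul_assoc, S.hx i0, inv_mul_eq_iff_eq_mul, ← mul_assoc, k1]; group
    · rw [Commute, SemiconjBy, mul_assoc, S.hy i0, inv_mul_eq_iff_eq_mul, ← mul_assoc, k2]; group
  have cm : ∀ t u, t ≠ 0 → u ≠ 0 → Commute (S.h t) (S.h u) := fun t u ht hu => by
    obtain ⟨i, rfl⟩ := hv' t ht
    obtain ⟨j, rfl⟩ := hv' u hu
    rw [← mul_inv_cancel_left (S.h v ^ i) (S.h (v ^ i))]
    refine Commute.mul_left (Commute.pow_left ?_ _) (c1 i _)
    rw [← mul_inv_cancel_left (S.h v ^ j) (S.h (v ^ j))]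
    exact ((Commute.refl _).pow_right _).mul_right (c1 j _).symm
  have sq : ∀ t u, t ≠ 0 → u ≠ 0 → S.h (t ^ 2 * u) = S.h (t ^ 2) * S.h u := fun t u ht hu => by
    have k : ∀ u, u ≠ 0 → S.h t * S.w u = S.w (t ^ 2 * u) * S.h t := fun u hu => by
      rw [w, w, ← mul_assoc, ← mul_assoc, S.hx ht, mul_assoc _ (S.h t), S.hy ht, mul_assoc,
        mul_assoc, S.hx ht]
      simp only [mul_assoc]
      congr 3; field_simp
    have k1 := k u hu
    have k2 := k 1 one_ne_zero
    rw [w_h, S.w_h (_ * _), ← mul_assoc, (cm t u ht hu).eq, mul_assoc, k2, mul_one, S.w_h (t ^ 2),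
      ← mul_assoc, ← mul_assoc, mul_left_inj, mul_left_inj] at k1
    rw [← k1, (cm _ _ hu (pow_ne_zero 2 ht)).eq]
  have sq' : ∀ t u, t ≠ 0 → u ≠ 0 → IsSquare t → S.h (t * u) = S.h t * S.h u := by
    rintro _ u ht hu ⟨r, rfl⟩
    simpa [pow_two] using sq r u (left_ne_zero_of_mul ht) hu
  intro t u ht hu
  by_cases h1 : IsSquare t
  · exact sq' t u ht hu h1
  by_cases h2 : IsSquare u
  · rw [mul_comm, sq' u t hu ht h2, (cm t u ht hu).eq]
  obtain ⟨a, b, e⟩ := ZMod.sq_add_sq p t⁻¹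
  have a0 : a ≠ 0 := by
    rintro rfl; exact h1 (by rw [← isSquare_inv, ← e]; exact ⟨b, by ring⟩)
  have b0 : b ≠ 0 := by
    rintro rfl; exact h1 (by rw [← isSquare_inv, ← e]; exact ⟨a, by ring⟩)
  obtain ⟨r, hr⟩ : IsSquare (t * u) := by
    obtain ⟨i, rfl⟩ := hv' t ht
    obtain ⟨j, rfl⟩ := hv' u hu
    have i1 : Odd i := Nat.not_even_iff_odd.1 fun e => h1 (e.isSquare_pow _)
    have j1 : Odd j := Nat.not_even_iff_odd.1 fun e => h2 (e.isSquare_pow _)
    rw [← pow_add]; exact (i1.add_odd j1).isSquare_pow _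
  have r0 : r ≠ 0 := by rintro rfl; simp [ht, hu] at hr
  have e' : 1 - t * a ^ 2 = t * b ^ 2 := by
    field_simp at e; linear_combination -e
  have k := S.h_one_sub (t := t * a ^ 2) (by positivity) (by rw [e']; positivity)
  have u1 : u = (r / (t * b)) ^ 2 * (t * b ^ 2) := by field_simp; linear_combination hr
  have t1 : t = (a⁻¹) ^ 2 * (t * a ^ 2) := by field_simp
  rw [e'] at k
  have k3 := sq (a⁻¹ * (r / (t * b))) (t * a ^ 2 * (t * b ^ 2)) (by positivity) (by positivity)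
  rw [← k, mul_pow, sq _ _ (inv_ne_zero a0) (by positivity)] at k3
  conv_rhs => rw [u1, t1, sq _ _ (inv_ne_zero a0) (by positivity), ← t1,
    sq _ _ (by positivity) (by positivity)]
  rw [show t * u = a⁻¹ ^ 2 * (r / (t * b)) ^ 2 * (t * a ^ 2 * (t * b ^ 2)) by
    field_simp; linear_combination hr, k3]
  simp only [mul_assoc]
  rw [(cm _ (t * a ^ 2) (by positivity) (by positivity)).left_comm]

end St

open MatrixGroups

variable {F : Type*} [Field F]

/-- upper unitriangular matrix -/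
def up (t : F) : SL(2, F) := ⟨!![1, t; 0, 1], by simp⟩

/-- lower unitriangular matrix -/
def lo (t : F) : SL(2, F) := ⟨!![1, 0; t, 1], by simp⟩

@[simp] theorem up_coe (t : F) : (up t).1 = !![1, t; 0, 1] := rfl
@[simp] theorem lo_coe (t : F) : (lo t).1 = !![1, 0; t, 1] := rfl

/-- the Steinberg data of `SL₂` -/
def stSL (F : Type*) [Field F] : St F SL(2, F) where
  x := up
  y := lo
  xa t u := by ext i j; fin_cases i <;> fin_cases j <;> simp [add_comm]
  ya t u := by ext i j; fin_cases i <;> fin_cases j <;> simp [add_comm]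
  r t ht u := by
    ext i j; fin_cases i <;> fin_cases j <;> simp [ht] <;> field_simp <;> ring

namespace St
variable {G : Type*} [Group G] (S : St F G)

open Classical in
/-- Bruhat normal form -/
noncomputable def f4 (a b c d : F) : G :=
  if c = 0 then S.x (a * b) * S.h a else S.x (a / c) * S.w (-c⁻¹) * S.x (d / c)

/-- Bruhat normal form -/
noncomputable def f (g : SL(2, F)) : G := S.f4 (g 0 0) (g 0 1) (g 1 0) (g 1 1)

theorem det (g : SL(2, F)) : g 0 0 * g 1 1 - g 0 1 * g 1 0 = 1 := by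
  rw [← det_fin_two]; exact g.det_coe

theorem f_SL (g : SL(2, F)) : (stSL F).f g = g := by
  have d := det g
  unfold f f4
  split_ifs with h
  · have a0 : g 0 0 ≠ 0 := fun e => by simp [e, h] at d
    rw [St.h, ← wn]
    ext i j; fin_cases i <;> fin_cases j <;> simp [w, stSL, h, a0]
    · field_simp
    · rw [h] at d; field_simp; linear_combination -d
  · ext i j; fin_cases i <;> fin_cases j <;> simp [w, stSL, h]
    · field_simp; linear_combination d
    · field_simp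

theorem f_x (g : SL(2, F)) (t : F) : S.f (g * up t) = S.f g * S.x t := by
  have d := det g
  have e : ∀ i, (g * up t) i 0 = g i 0 ∧ (g * up t) i 1 = g i 0 * t + g i 1 := fun i => by
    simp [Matrix.mul_apply, Fin.sum_univ_two]
  rw [f, f, (e 0).1, (e 0).2, (e 1).1, (e 1).2]
  generalize g 0 0 = a, g 0 1 = b, g 1 0 = c, g 1 1 = d' at *
  unfold f4
  split_ifs with h
  · have a0 : a ≠ 0 := fun e => by simp [e, h] at d
    rw [mul_assoc _ (S.h a), S.hx a0, ← mul_assoc, ← S.xa]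
    congr 2; ring
  · rw [mul_assoc _ _ (S.x t), ← S.xa]
    congr 2; field_simp; ring

theorem f_w (hS : S.Mul) (g : SL(2, F)) : S.f (g * (stSL F).w 1) = S.f g * S.w 1 := by
  have e' := det g
  have e : ∀ i, (g * (stSL F).w 1) i 0 = -g i 1 ∧ (g * (stSL F).w 1) i 1 = g i 0 := fun i => by
    simp [w, stSL, Matrix.mul_apply, Fin.sum_univ_two]
  have k : ∀ s, s ≠ 0 → S.w (-s) * S.w 1 = S.h s := fun s hs => by
    have := hS (-s) (-1) (by simpa) (by simp)
    rw [neg_mul_neg, mul_one, h.eq_1 S (-1), S.wn 1] at this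
    have e2 := hS (-1) (-1) (by simp) (by simp)
    rw [neg_mul_neg, mul_one, h1, h, wn] at e2
    rw [this, w_h]
    calc _ = S.h (-s) * (S.w 1 * S.w 1 * 1) := by group
      _ = _ := by rw [e2]; group
  rw [f, f, (e 0).1, (e 0).2, (e 1).1, (e 1).2]
  generalize g 0 0 = a, g 0 1 = b, g 1 0 = c, g 1 1 = d at *
  rw [f4, f4]
  by_cases h : c = 0
  · subst h
    have d0 : d ≠ 0 := fun e => by simp [e] at e'
    rw [if_pos rfl, if_neg (neg_ne_zero.2 d0), zero_div, x0, mul_one, mul_assoc, ← w_h]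
    congr 2 <;> field_simp
    · linear_combination -b * e'
    · linear_combination -e'
  rw [if_neg h]
  by_cases h' : d = 0
  · subst h'
    rw [if_pos neg_zero, zero_div, x0, mul_one, mul_assoc, k _ (inv_ne_zero h)]
    congr 2 <;> field_simp
    · linear_combination a * e'
    · linear_combination e'
  · rw [if_neg (neg_ne_zero.2 h')]
    have e1 := S.wy one_ne_zero (-(d / c))
    have e2 : S.y (-(d / c)) = S.x (-(c / d)) * S.w (c / d) * S.x (-(c / d)) := by
      rw [w, xn, inv_div]; group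
    rw [neg_neg, one_pow, mul_one] at e1
    have e3 := S.hx (inv_ne_zero h) (-(c / d))
    have e4 := hS _ _ (inv_ne_zero h) (div_ne_zero h h')
    have e5 := S.xa (a / c) (c⁻¹ ^ 2 * -(c / d))
    rw [show a / c + c⁻¹ ^ 2 * -(c / d) = -b / -d by field_simp; linear_combination e'] at e5
    rw [show c⁻¹ * (c / d) = -(-d)⁻¹ by field_simp] at e4
    calc _ = S.x (a / c) * (S.x (c⁻¹ ^ 2 * -(c / d)) * S.h c⁻¹) * S.w (c / d) * S.x (-(c / d)) := by
          rw [e5, w_h, e4, S.w_h (c / d), div_neg]; group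
      _ = _ := by rw [← e3, ← k _ (inv_ne_zero h), mul_assoc _ (S.x _) (S.w 1), ← e1, e2]; group

theorem ind {P : SL(2, F) → Prop} (h1 : ∀ t, P (up t)) (h2 : P ((stSL F).w 1))
    (h3 : ∀ a b, P a → P b → P (a * b)) (g : SL(2, F)) : P g := by
  have i1 : P ((stSL F).w 1)⁻¹ := by
    rw [show ((stSL F).w 1)⁻¹ = (stSL F).w 1 * (stSL F).w 1 * (stSL F).w 1 by
      ext i j; fin_cases i <;> fin_cases j <;> simp [w, stSL]]
    exact h3 _ _ (h3 _ _ h2 h2) h2
  have i2 : ∀ t, P ((stSL F).y t) := fun t => by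
    have := (stSL F).wx one_ne_zero (-t)
    rw [neg_neg, one_pow, div_one, ← mul_inv_eq_iff_eq_mul] at this
    rw [← this]
    exact h3 _ _ (h3 _ _ h2 (h1 _)) i1
  have i3 : ∀ t, P ((stSL F).w t) := fun t => h3 _ _ (h3 _ _ (h1 _) (i2 _)) (h1 _)
  rw [← f_SL g, f, f4]
  split_ifs
  · exact h3 _ _ (h1 _) (h3 _ _ (i3 _) i1)
  · exact h3 _ _ (h3 _ _ (h1 _) (i3 _)) (h1 _)

theorem f_one : S.f 1 = 1 := by simp [f, f4]

/-- the homomorphism from `SL₂` -/
noncomputable def hom (hS : S.Mul) : SL(2, F) →* G := MonoidHom.mk' S.f fun a b => by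
  revert a
  refine ind (P := fun b => ∀ a, S.f (a * b) = S.f a * S.f b) (fun t a => ?_) (fun a => ?_)
    (fun b c i j a => by rw [← mul_assoc, j, i, j, mul_assoc]) b
  · rw [f_x, ← one_mul (up t), f_x, f_one, one_mul]
  · rw [S.f_w hS, ← one_mul ((stSL F).w 1), S.f_w hS, f_one, one_mul]

theorem hom_up (hS : S.Mul) (t : F) : S.hom hS (up t) = S.x t := by
  change S.f _ = _
  rw [← one_mul (up t), f_x, f_one, one_mul]

theorem hom_w (hS : S.Mul) : S.hom hS ((stSL F).w 1) = S.w 1 := by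
  change S.f _ = _
  rw [← one_mul ((stSL F).w 1), S.f_w hS, f_one, one_mul]

theorem hom_lo (hS : S.Mul) (t : F) : S.hom hS (lo t) = S.y t := by
  have h1 := congrArg (S.hom hS) ((stSL F).wx one_ne_zero (-t))
  have h2 := S.wx one_ne_zero (-t)
  rw [neg_neg, one_pow, div_one] at h1 h2
  rw [map_mul, map_mul, hom_w] at h1
  exact mul_right_cancel (h1.symm.trans ((congrArg _ (S.hom_up hS _)).trans h2))

theorem closure_eq : Subgroup.closure (Set.range (up (F := F)) ∪ Set.range lo) = ⊤ :=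
  eq_top_iff.2 fun g _ => ind (P := (· ∈ _)) (fun t => Subgroup.subset_closure (.inl ⟨t, rfl⟩))
    (mul_mem (mul_mem (Subgroup.subset_closure (.inl ⟨_, rfl⟩)) (Subgroup.subset_closure (.inr ⟨_, rfl⟩)))
      (Subgroup.subset_closure (.inl ⟨_, rfl⟩))) (fun _ _ => mul_mem) g

theorem range_hom (hS : S.Mul) : (S.hom hS).range = Subgroup.closure (Set.range S.x ∪ Set.range S.y) := by
  rw [MonoidHom.range_eq_map, ← closure_eq, MonoidHom.map_closure, Set.image_union,
    ← Set.range_comp, ← Set.range_comp]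
  congr 3 <;> ext1 t
  exacts [S.hom_up hS t, S.hom_lo hS t]

theorem ker_hom (hS : S.Mul) (h1 : ∀ t, (∀ u, S.x t * S.y u = S.y u * S.x t) → t = 0)
    {g : SL(2, F)} (hg : S.hom hS g = 1) : g = 1 ∨ g = -1 := by
  have d := det g
  change S.f g = 1 at hg
  have xi : ∀ t u, S.x t = S.x u → t = u := fun t u e => sub_eq_zero.1 (h1 _ fun v => by
    rw [sub_eq_add_neg, S.xa, xn, e, mul_inv_cancel, one_mul, mul_one])
  by_cases h : g 1 0 = 0
  · rw [f, f4, if_pos h] at hg
    rw [h] at d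
    have a0 : g 0 0 ≠ 0 := fun e => by simp [e] at d
    have e1 := S.hx a0 1
    have e2 := S.hy a0
    rw [eq_inv_of_mul_eq_one_right hg, ← xn] at e1 e2
    rw [← S.xa, ← S.xa] at e1
    have e3 : g 0 0 ^ 2 = 1 := by linear_combination -xi _ _ e1
    have e4 : g 0 1 = 0 := by simpa [a0] using h1 (-(g 0 0 * g 0 1)) (by simpa only [e3, div_one] using e2)
    refine (sq_eq_one_iff.1 e3).imp (fun e => ?_) fun e => ?_ <;>
      ext i j <;> fin_cases i <;> fin_cases j <;> simp [e, e4, h] <;> rw [e] at d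
    · linear_combination d
    · linear_combination -d
  · rw [f, f4, if_neg h] at hg
    have := S.wx (neg_ne_zero.2 (inv_ne_zero h)) 1
    have e : S.w (-(g 1 0)⁻¹) = S.x (-(g 0 0 / g 1 0) + -(g 1 1 / g 1 0)) := by
      rw [S.xa, xn, xn, ← mul_inv_cancel_left (S.x (g 0 0 / g 1 0))⁻¹ (S.w _), inv_inv,
        eq_inv_of_mul_eq_one_left hg]
    rw [e, ← S.xa, add_comm, S.xa, mul_left_inj] at this
    exact absurd (h1 1 fun u => by rw [this, ← S.ya, ← S.ya, add_comm]) one_ne_zero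

end St
end RS
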