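import Cfsg.Agent.RS.Sp
import Cfsg.Agent.RS.SL

/-! Minimal subgroups of special rank one groups. -/
namespace RS
open Cfsg Subgroup Matrix MatrixGroups

variable {G : Type*} [Group G] {A B : Subgroup G} {a b g : G} {p : ℕ} [Fact p.Prime]

theorem pw_nat (h : g ^ p = 1) (n : ℕ) : g ^ (n : ZMod p).val = g ^ n := by
  rw [ZMod.val_natCast, ← pow_eq_pow_mod n h]

theorem pw_add (h : g ^ p = 1) (t u : ZMod p) : g ^ (t + u).val = g ^ t.val * g ^ u.val := by
  rw [← pow_add, ← pw_nat h (_ + _)]; simp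

theorem pw_mul (h : g ^ p = 1) (t u : ZMod p) : g ^ (t * u).val = (g ^ t.val) ^ u.val := by
  rw [← pow_mul, ← pw_nat h (_ * _)]; simp

theorem pw_neg (h : g ^ p = 1) (t : ZMod p) : g ^ (-t).val = (g ^ t.val)⁻¹ :=
  eq_inv_of_mul_eq_one_left (by rw [← pw_add h]; simp)

theorem pw_one : g ^ (1 : ZMod p).val = g := by rw [ZMod.val_one, pow_one]

theorem Sp.psl (h : Sp A B) (hab : HasAbelianUnipotents A B) (ha : a ∈ A) (a1 : a ≠ 1)
    (hp : a ^ p = 1) : ∃ φ : SL(2, ZMod p) →* G, φ.range = closure {a, bt A B a} ∧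
      ∀ g, φ g = 1 → g = 1 ∨ g = -1 := by
  have ho : orderOf a = p := orderOf_eq_prime hp a1
  have hb : ∀ c ∈ A, c ≠ 1 → c ^ p = 1 → bt A B c ^ p = 1 := fun c hc c1 e => by
    have := (h.order_mu (c := c) hc c1 p).2 e
    have k := conj_pow (a := (nn A B c)⁻¹) (b := bt A B c) (i := p)
    rw [inv_inv] at k
    rw [mu, k] at this
    simpa [mul_eq_one_iff_eq_inv] using this
  have b0 := hb a ha a1 hp
  have ne : ∀ t : ZMod p, t ≠ 0 → ∀ k, 1 ≤ k → k ≤ t.val → a ^ k ≠ 1 := fun t _ k i j =>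
    pow_ne_one_of_lt_orderOf (by omega) (by have := t.val_lt; omega)
  let S : St (ZMod p) G := ⟨fun t => a ^ t.val, fun t => bt A B a ^ t.val, pw_add hp, pw_add b0,
    fun t ht u => by
      have t0 := ZMod.val_pos.2 ht
      have c1 := ne t ht _ t0 le_rfl
      have hc := pow_mem ha t.val
      have e1 := (h.mu_pow hab ha (t.val - 1) (by rw [Nat.sub_add_cancel t0]; exact ne t ht)).1
      rw [Nat.sub_add_cancel t0, mu] at e1
      have e2 := h.nn_conj hc c1
      rw [mu] at e2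
      have e3 : bt A B (a ^ t.val) ^ t.val = bt A B a := by
        have := conj_pow (a := (nn A B (a ^ t.val))⁻¹) (b := bt A B (a ^ t.val)) (i := t.val)
        rw [inv_inv, e2, inv_pow, ← pow_mul, ← sq, ← e1] at this
        exact (mul_left_cancel (mul_right_cancel this)).symm
      have e4 : bt A B a ^ (-t⁻¹).val = (bt A B (a ^ t.val))⁻¹ := by
        rw [pw_neg b0, ← e3, ← pw_mul (hb _ hc c1 (by rw [← pow_mul, mul_comm, pow_mul, hp, one_pow])),
          mul_inv_cancel₀ ht, pw_one]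
      have := conj_pow (a := (nn A B (a ^ t.val))⁻¹) (b := bt A B a) (i := (-u / t ^ 2).val)
      rw [inv_inv, e1, sq t.val, pow_mul, ← pw_mul hp, ← pw_neg hp, ← pw_mul hp,
        show -(t * t) * (-u / t ^ 2) = u by field_simp] at this
      rw [e4, this, ← nn]; group⟩
  refine ⟨S.hom S.mul_of_prime, ?_, fun g => S.ker_hom _ fun t ht => ?_⟩
  · rw [S.range_hom]
    refine le_antisymm ((closure_le _).2 ?_) (closure_mono ?_)
    · rintro _ (⟨t, rfl⟩ | ⟨t, rfl⟩)
      · exact pow_mem (subset_closure (by simp)) _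
      · exact pow_mem (subset_closure (by simp)) _
    · rintro _ (rfl | rfl)
      · exact .inl ⟨1, pw_one⟩
      · exact .inr ⟨1, pw_one⟩
  · by_contra t0
    have c1 := ne t t0 _ (ZMod.val_pos.2 t0) le_rfl
    have e : a ^ t.val * bt A B a = bt A B a * a ^ t.val := by simpa [S, pw_one] using ht 1
    have P := h.r1.pt ha a1
    have := cj_mem P.1 (a ^ t.val)
    rw [e, mul_inv_cancel_right] at this
    exact P.2.1 ((h.r1.cj_pair (pow_mem ha _) c1).inf P.1 this)

theorem iso_of_ker {F : Type*} [Field F] (φ : SL(2, F) →* G) (h : ∀ g, φ g = 1 → g = 1 ∨ g = -1) :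
    Nonempty (φ.range ≃* SL(2, F)) ∨ (φ (-1) = 1 ∧
      Nonempty (φ.range ≃* ProjectiveSpecialLinearGroup (Fin 2) F)) := by
  by_cases e : φ (-1) = 1
  · refine .inr ⟨e, ⟨(QuotientGroup.quotientKerEquivRange φ).symm.trans
      (QuotientGroup.quotientMulEquivOfEq ?_)⟩⟩
    ext g
    refine ⟨fun hg => ?_, fun hg => ?_⟩
    · rcases h g hg with rfl | rfl
      · exact one_mem _
      · exact mem_center_iff.2 fun x => by simp
    · obtain ⟨r, h1, h2⟩ := Matrix.SpecialLinearGroup.mem_center_iff.1 hg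
      rcases sq_eq_one_iff.1 (by simpa using h1 : r ^ 2 = 1) with rfl | rfl
      · rw [show g = 1 from Subtype.ext (by simpa using h2.symm)]; exact one_mem _
      · rwa [show g = -1 from Subtype.ext (h2.symm.trans (map_neg _ _ |>.trans (by simp)))]
  · exact .inl ⟨(MonoidHom.ofInjective ((injective_iff_map_eq_one φ).2 fun g hg =>
      (h g hg).resolve_right fun e' => e (e' ▸ hg))).symm⟩

end RS
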