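import Cfsg.Agent.RS.R2
import Cfsg.Agent.RS.Sp

/-! Two commuting root subgroups with a common opposite. -/
namespace RS
open Cfsg Subgroup
open scoped commutatorElement

variable {G : Type*} [Group G] {S : Set (Subgroup G)} {A B C : Subgroup G} {a b c s : G}

/-- a triple -/
structure Tr (A C B : Subgroup G) : Prop where
  a : ⁅A, A⁆ = ⊥
  b : ⁅B, B⁆ = ⊥
  ac : ⁅A, C⁆ = ⊥
  ne : A ≠ C
  ab : R1 A B
  cb : R1 C B

namespace Tr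

theorem uniq (h : Tr A C B) (ha : a ∈ A) (hb : b ∈ B) (hc : c ∈ C) (a1 : a ≠ 1)
    (e : conjBy A b = conjBy B a) (p : ⁅conjBy B a, conjBy B c⁆ = ⊥) : conjBy C b = conjBy B c := by
  have c1 : c ≠ 1 := by
    rintro rfl
    exact (h.ab.cj_pair ha a1).not_comm (comm_symm (by simpa using p))
  obtain ⟨b', hb', -, e'⟩ := h.cb.left hc c1
  rw [← e, ← e'] at p
  by_contra n
  have k := comm_cj p b⁻¹
  rw [cj_inv_cj, cj_cj] at k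
  have := comm_sup h.ac k
  rw [h.cb.symm.cj_sup' (mul_mem (inv_mem hb) hb') fun i => n (inv_mul_eq_one.1 i ▸ e')] at this
  exact h.ab.not_comm (comm_mono this le_rfl le_sup_left)

theorem uniq' (h : Tr A C B) {c' : G} (ha : a ∈ A) (hc : c ∈ C) (hc' : c' ∈ C)
    (p : ⁅conjBy B a, conjBy B c⁆ = ⊥) (p' : ⁅conjBy B a, conjBy B c'⁆ = ⊥) : c = c' := by
  by_cases a1 : a = 1
  · have k : ∀ c ∈ C, ⁅conjBy B a, conjBy B c⁆ = ⊥ → c = 1 := fun c hc p => by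
      by_contra c1; exact (h.cb.cj_pair hc c1).not_comm (by simpa [a1] using p)
    rw [k c hc p, k c' hc' p']
  obtain ⟨b, hb, -, e⟩ := h.ab.left ha a1
  exact h.cb.uniq hc hc' ((h.uniq ha hb hc a1 e p).symm.trans (h.uniq ha hb hc' a1 e p'))

theorem step (h1 : ⁅A, A⁆ = ⊥) (h2 : R1 A B) (hs : ∀ a ∈ A, a * s = s * a) (p : ⁅B, conjBy B s⁆ = ⊥) (hb : b ∈ B) :
    ⁅conjBy A b, conjBy A (s * b * s⁻¹)⁆ = ⊥ := by
  by_cases b1 : b = 1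
  · simpa [b1] using h1
  obtain ⟨a, ha, -, e⟩ := h2.right hb b1
  rw [← cj_cj, cj_of_comm (g := s⁻¹) fun x i => by rw [mul_inv_eq_iff_eq_mul, mul_assoc, hs x i]; simp,
    ← cj_cj, e, cj_cj, ← hs a ha, ← cj_cj]
  exact comm_cj p a

theorem phi (h : Tr A C B) (ha : a ∈ A) (hb : b ∈ B) (hc : c ∈ C) (a1 : a ≠ 1)
    (e : conjBy A b = conjBy B a) (p : ⁅conjBy B a, conjBy B c⁆ = ⊥) (hs : s = a⁻¹ * c) :
    conjBy A (b⁻¹ * (s * b * s⁻¹)) = C ∧ ∀ x ∈ A, ⁅conjBy B x,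
      conjBy B (b⁻¹ * (s * b * s⁻¹) * x * (b⁻¹ * (s * b * s⁻¹))⁻¹)⁆ = ⊥ := by
  have sA : ∀ x ∈ A, x * s = s * x := fun x i => by
    rw [hs, ← mul_assoc, cen_of h.a i (inv_mem ha), mul_assoc, cen_of h.ac i hc, mul_assoc]
  have p' : ⁅B, conjBy B s⁆ = ⊥ := by simpa [cj_cj, hs] using comm_cj p a⁻¹
  constructor
  · rw [← cj_cj, ← cj_cj, cj_of_comm (g := s⁻¹) fun x i => by
      rw [mul_inv_eq_iff_eq_mul, mul_assoc, sA x i]; simp, ← cj_cj, e, cj_cj (g := a), ← sA a ha, hs,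
      mul_inv_cancel_left, ← h.uniq ha hb hc a1 e p, cj_inv_cj]
  intro x hx
  obtain ⟨b', hb', -, e'⟩ := h.ab.left (inv_mem ha) (inv_ne_one.2 a1)
  have m : a⁻¹ * b * x * (a⁻¹ * b)⁻¹ ∈ B := (cj_swap e).le (cj_mem hx _)
  have k := comm_cj (comm_cj (step h.a h.ab sA p' m) b') (a⁻¹ * b)⁻¹
  have eB : B = conjBy A (a * b') := by rw [← cj_cj, e', cj_cj_inv]
  have n : ∀ g, conjBy B g = conjBy A (g * (b⁻¹ * a * b')) := fun g => by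
    rw [← cj_cj, mul_assoc, ← cj_cj (h := b⁻¹), ← eB, cj_self (inv_mem hb)]
  rw [cj_cj, cj_cj, cj_cj, cj_cj, mul_assoc _ b', mul_assoc _ b', cen_of h.b hb' m,
    cen_of p' hb' (cj_mem m s)] at k
  rw [n, n]
  convert k using 2
  · group
  · congr 1
    calc _ = b⁻¹ * s * b * s⁻¹ * (x * s) * b⁻¹ * s⁻¹ * (a * s) * s⁻¹ * b' := by group
      _ = b⁻¹ * (s * a) * a⁻¹ * b * x * b⁻¹ * a * s⁻¹ * b' := by rw [sA x hx, sA a ha]; group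
      _ = _ := by rw [← sA a ha]; group

theorem exists_s (h : Tr A C B) (ha : a ∈ A) (hb : b ∈ B) (a1 : a ≠ 1)
    (e : conjBy A b = conjBy B a) : ∃ c ∈ C, ⁅conjBy B a, conjBy B c⁆ = ⊥ := by
  obtain ⟨c, hc, -, e'⟩ := h.cb.right hb (by rintro rfl; exact h.ab.ne (cj_inj ((cj_self ha).trans
    (by simpa using e))))
  exact ⟨c, hc, e ▸ e' ▸ comm_cj h.ac b⟩

theorem inf (h : Tr A C B) (ha : a ∈ A) (hc : a ∈ C) : a = 1 := by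
  by_contra a1
  obtain ⟨b, hb, -, e⟩ := h.ab.left ha a1
  exact h.ne (cj_inj (e.trans (h.uniq ha hb hc a1 e (comm_cj h.b a)).symm))

end Tr

theorem Tr.next (h : Tr A C B)
    (ha : a ∈ A) (hc : c ∈ C) (a1 : a ≠ 1) (p : ⁅conjBy B a, conjBy B c⁆ = ⊥) (hs : s = a⁻¹ * c) :
    (∀ x ∈ A, x * s = s * x) ∧ Tr B (conjBy B s) A := by
  have sA : ∀ x ∈ A, x * s = s * x := fun x i => by
    rw [hs, ← mul_assoc, cen_of h.a i (inv_mem ha), mul_assoc, cen_of h.ac i hc, mul_assoc]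
  refine ⟨sA, h.b, h.a, by simpa [cj_cj, hs] using comm_cj p a⁻¹, fun e => ?_, h.ab.symm, ?_⟩
  · obtain ⟨b, hb, -, e1⟩ := h.ab.left ha a1
    have e2 := h.uniq ha hb hc a1 e1 p
    rw [← mul_inv_cancel_left a c, ← cj_cj, ← hs, ← e, ← e1] at e2
    exact h.ne (cj_inj e2).symm
  · simpa [cj_of_comm sA] using h.ab.symm.conj s

/-- the basic relation -/
theorem Tr.rel (h : Tr B (conjBy B s) A) (sA : ∀ x ∈ A, x * s = s * x) (ha : a ∈ A) (hb : b ∈ B)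
    (b1 : b ≠ 1) (e : conjBy A b = conjBy B a) {t : G} (ht : t = b⁻¹ * (s * b * s⁻¹)) :
    ∀ y ∈ B, (a⁻¹ * (t * a * t⁻¹)) * y * (a⁻¹ * (t * a * t⁻¹))⁻¹ = s * y * s⁻¹ := fun y hy => by
  have st : ∀ b ∈ B, ⁅conjBy A b, conjBy A (s * b * s⁻¹)⁆ = ⊥ := fun b hb =>
    Tr.step h.b h.ab.symm sA h.ac hb
  obtain ⟨i, j⟩ := h.phi hb ha (cj_mem hb s) b1 e.symm (st b hb) ht
  exact h.uniq' hy (i ▸ cj_mem hy _) (cj_mem hy s) (j y hy) (st y hy)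

theorem Tr.special (h : Tr A C B) : IsSpecialRankOnePair A B := by
  refine ⟨h.ab, fun a ha a1 b hb b1 e => ?_⟩
  rw [← inv_inv a, ← inv_inv b]
  rw [← inv_mem_iff] at ha hb
  rw [← inv_ne_one] at a1 b1
  generalize a⁻¹ = a, b⁻¹ = b at *
  simp only [inv_inv]
  obtain ⟨c, hc, p⟩ := h.exists_s ha hb a1 e
  obtain ⟨sA, T⟩ := h.next ha hc a1 p rfl
  generalize a⁻¹ * c = s at *
  have r := T.rel sA ha hb b1 e rfl b hb
  have st := comm_cj (Tr.step h.a h.ab sA T.ac hb) b⁻¹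
  rw [cj_inv_cj, cj_cj] at st
  have i1 := cen_of st (inv_mem ha) (cj_mem ha _)
  have i2 := cen_of (comm_cj T.ac s⁻¹) (cj_mem' (inv_mem hb) s) (cj_inv_cj.ge hb)
  have i3 := sA a ha
  have m : a⁻¹ * (b * a * b⁻¹) * a ∈ B := mem_cj.1 (e.le (cj_mem ha b))
  set t := b⁻¹ * (s * b * s⁻¹) with ht
  have i4 := sA _ (inv_mem ha)
  have k : b * (a * b⁻¹ * s * b * a⁻¹) * b⁻¹ = a * b⁻¹ * s * b * a⁻¹ := by
    have e1 : a * b⁻¹ * s * b * a⁻¹ = (a⁻¹ * (t * a * t⁻¹))⁻¹ * s * (s⁻¹ * b⁻¹ * s * b) := by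
      calc _ = a * t * (s * a⁻¹) := by rw [ht]; group
        _ = _ := by rw [i1, ← i4, ht]; group
    rw [e1, i2]
    generalize a⁻¹ * (t * a * t⁻¹) = u at *
    calc _ = u⁻¹ * (u * b * u⁻¹) * s * (b * (s⁻¹ * b⁻¹ * s)) * b⁻¹ := by group
      _ = u⁻¹ * s * b * (s⁻¹ * b⁻¹ * s * b) * b⁻¹ := by rw [r, i2]; group
      _ = _ := by group
  have m' := mul_mem hb m
  have : b * (a⁻¹ * (b * a * b⁻¹) * a) = 1 := T.inf m' (by
    rw [mem_cj]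
    convert m' using 1
    calc _ = s⁻¹ * b * a⁻¹ * b * a * b⁻¹ * (a * s) := by group
      _ = s⁻¹ * b * a⁻¹ * (b * (a * b⁻¹ * s * b * a⁻¹) * b⁻¹) * b * a * b⁻¹ * a := by rw [i3]; group
      _ = _ := by rw [k]; group)
  calc _ = a * (b * (a⁻¹ * (b * a * b⁻¹) * a)) * a⁻¹ * (b * a⁻¹ * b⁻¹) := by rw [this]; group
    _ = _ := by group

theorem Tr.third (h : Tr A C B) {b₁ b₂ b₃ : G} (h1 : b₁ ∈ B) (h2 : b₂ ∈ B) (h3 : b₃ ∈ B)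
    (n1 : b₁ ≠ 1) (n2 : b₂ ≠ 1) (n3 : b₃ ≠ 1) (n4 : b₂ * b₁ ≠ 1) (n5 : b₃ * b₁ ≠ 1) (n6 : b₃ * b₂ ≠ 1)
    (n7 : b₃ * (b₂ * b₁) ≠ 1) {K : Subgroup G}
    (hK : ∀ g, ⁅A, conjBy A g⁆ = ⊥ → conjBy A g ≠ A → conjBy A g ≤ K) : ∃ a ∈ A, a ≠ 1 ∧ a ∈ K := by
  obtain ⟨a, ha, a1, e⟩ := h.ab.right h1 n1
  obtain ⟨c, hc, p⟩ := h.exists_s ha h1 a1 e
  obtain ⟨sA, T⟩ := h.next ha hc a1 p rfl
  obtain ⟨q1, q2⟩ := h.phi ha h1 hc a1 e p rfl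
  have q3 : ⁅conjBy B (a⁻¹ * c)⁻¹, conjBy B (a⁻¹ * c)⁆ = ⊥ := by
    have e1 := h.uniq' ha hc (q1.le (cj_mem ha _)) p (q2 a ha)
    have := comm_cj (q2 _ (mul_mem ha ha)) (a⁻¹ * c⁻¹)
    rw [← conj_mul, ← e1, cj_cj, cj_cj] at this
    have i := cen_of h.ac ha hc
    convert this using 3
    · rw [mul_assoc, ← mul_assoc c⁻¹, ← cen_of h.ac ha (inv_mem hc)]; group
    · group
  have sC : ∀ x ∈ C, x * (a⁻¹ * c) = a⁻¹ * c * x := fun x i => by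
    have := cen_of (comm_cj h.a _) (q1.ge i) (q1.ge hc)
    rw [← mul_assoc, ← cen_of h.ac (inv_mem ha) i, mul_assoc, this, mul_assoc]
  generalize hs : a⁻¹ * c = s at *
  let t : G → G := fun b => b⁻¹ * (s * b * s⁻¹)
  have tm : ∀ x ∈ B, ∀ y ∈ B, t (x * y) = t x * t y := fun x i y j => by
    simp only [t]
    rw [mul_assoc x⁻¹, ← mul_assoc (s * x * s⁻¹), ← cen_of T.ac (inv_mem j) (cj_mem i s),
      ← mul_assoc x⁻¹, ← mul_assoc x⁻¹, cen_of h.b (inv_mem i) (inv_mem j)]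
    group
  have k : ∀ x ∈ B, x ≠ 1 → t x * a * (t x)⁻¹ ∈ K := fun x i j => by
    have st := comm_cj (Tr.step h.a h.ab sA T.ac i) x⁻¹
    rw [cj_inv_cj, cj_cj] at st
    refine hK _ st (fun e => ?_) (cj_mem ha _)
    obtain ⟨y, hy, y1, e'⟩ := h.ab.right i j
    have := congrArg (conjBy · x) e
    simp only [cj_cj, t, mul_inv_cancel_left] at this
    rw [← cj_cj, cj_of_comm (g := s⁻¹) fun x i => by
      rw [mul_inv_eq_iff_eq_mul, mul_assoc, sA x i]; simp, ← cj_cj, e', cj_cj, ← sA y hy,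
      ← cj_cj] at this
    exact T.ne (cj_inj this).symm
  have r := T.rel sA ha h1 n1 e rfl
  change ∀ y ∈ B, (a⁻¹ * (t b₁ * a * (t b₁)⁻¹)) * y * (a⁻¹ * (t b₁ * a * (t b₁)⁻¹))⁻¹ = _ at r
  have us : s * (a⁻¹ * (t b₁ * a * (t b₁)⁻¹)) = (a⁻¹ * (t b₁ * a * (t b₁)⁻¹)) * s := by
    rw [← mul_assoc s, ← sA _ (inv_mem ha), mul_assoc, ← sC _ (q1.le (cj_mem ha _))]
    simp only [t, mul_assoc]
  set u := a⁻¹ * (t b₁ * a * (t b₁)⁻¹) with hu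
  have e2 : u⁻¹ * t b₂ * u = s⁻¹ * b₂⁻¹ * s * b₂ := by
    have i := r _ (inv_mem h2)
    have j := r _ h2
    calc _ = u⁻¹ * s⁻¹ * (s * b₂⁻¹ * s⁻¹) * (s * u) * u⁻¹ * (s * b₂ * s⁻¹) * u := by simp only [t]; group
      _ = (s * u)⁻¹ * u * b₂⁻¹ * s * b₂ := by rw [← i, ← j, us, ← mul_inv_rev, us]; group
      _ = _ := by rw [us]; group
  have e3 : t b₃ * (u⁻¹ * t b₂ * u * (t b₂)⁻¹) * (t b₃)⁻¹ = u⁻¹ * t b₂ * u * (t b₂)⁻¹ := by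
    have m : t b₃ ∈ B ⊔ conjBy B s := mul_mem (mem_sup_left (inv_mem h3)) (mem_sup_right (cj_mem h3 s))
    have m2 : t b₂ ∈ B ⊔ conjBy B s := mul_mem (mem_sup_left (inv_mem h2)) (mem_sup_right (cj_mem h2 s))
    have c1 : ⁅conjBy B s⁻¹, B⁆ = ⊥ := by simpa [cj_cj] using comm_cj T.ac s⁻¹
    have := cen_of (sup_comm' (comm_sup c1 q3) (sup_comm' (comm_sup h.b T.ac)
      (comm_sup (comm_symm T.ac) (comm_cj h.b s)))) (mul_mem (mem_sup_left (cj_mem' (inv_mem h2) s))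
      (mem_sup_right (mul_mem (mem_sup_left h2) (inv_mem m2)))) m
    rw [e2, mul_assoc _ b₂, ← this, mul_inv_cancel_right]
  refine ⟨a, ha, a1, ?_⟩
  have := mul_mem (mul_mem (mul_mem (k _ h1 n1) (mul_mem (mul_mem (mul_mem
    (inv_mem (k _ (mul_mem h3 h1) n5)) (k _ h3 n3)) (inv_mem (k _ (mul_mem h3 h2) n6)))
    (k _ (mul_mem h3 (mul_mem h2 h1)) n7))) (inv_mem (k _ (mul_mem h2 h1) n4))) (k _ h2 n2)
  rw [tm _ h3 _ h1, tm _ h3 _ h2, tm _ h3 _ (mul_mem h2 h1), tm _ h2 _ h1] at this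
  convert this using 1
  calc a = t b₁ * a * (t b₁)⁻¹ * (u⁻¹ * t b₂ * u * (t b₂)⁻¹) * (t b₂ * u⁻¹ * (t b₂)⁻¹) := by
        rw [hu]; group
    _ = _ := by rw [← e3, hu]; group

end RS
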